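import Cfsg.Agent.H129.CycRow
import Cfsg.Agent.H378.Regular
import Cfsg.Agent.H190.Exc.Defs

/-!
# Cyclic tori: normalising elements

* `mem_TT_of_norm` : an element of prime order `r ∤ |W|` normalising `⟨t⟩`, `t` regular of prime order, lies in the torus;
* `TorP G w N r` : a cyclic subgroup `T` with `|T| ∣ N`, `r ∣ |T|`, containing the centralisers of its elements `y` of
  order `r`, and elements of prime order not dividing `w` normalising `⟨y⟩` centralise `y`;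
* `TorP.cc`, `TorP.cd`, `TorP.nn`;
* `exists_TorP` : abstract descent.
-/

set_option autoImplicit false
set_option linter.unusedSectionVars false

namespace Cfsg.Agent.H190.Exc

open CoxeterSystem Cfsg Cfsg.Lie Cfsg.Lie.ChevalleyDatum
open Cfsg.Agent.ChevalleyStructure Cfsg.Agent.ChevalleyStructure.Elts Cfsg.Agent.ChevalleyStructure.CoxeterGeom
  Cfsg.Agent.ChevalleyStructure.CoxeterGeomTypes Cfsg.Agent.ChevalleyStructure.NPerm
open Cfsg.Agent.Tits.Roots Cfsg.Agent.Tits.Core Cfsg.Agent.Nodes Cfsg.Agent.Nodes.Reps Cfsg.Agent.Nodes.BNOf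
  Cfsg.Agent.Nodes.RGDChev Cfsg.Agent.Nodes.Bruhat Cfsg.Agent.Nodes.SubComb Cfsg.Agent.Nodes.Coroot
open Cfsg.Agent.KFacts.RgdField Cfsg.Agent.KFacts.RgdChevCoord Cfsg.Agent.BpExc.TorCent Cfsg.Agent.BpExc.TorChev
open Cfsg.Agent.GpExc.Field Cfsg.Agent.BpExc.Tow Cfsg.Agent.BpExc.TowChev Cfsg.Agent.BpExc.Fr
  Cfsg.Agent.BpExc.LangFr Cfsg.Agent.LangThm Cfsg.Agent.BpExc Cfsg.Agent.H129.TorusChar Cfsg.Agent.H129.TorusCent
  Cfsg.Agent.H129.TorusTw Cfsg.Agent.H129.TorusMain Cfsg.Agent.H129.StabGen Cfsg.Agent.H129.TorAct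

universe u

/-! ### abstract consequences -/

section Abs

variable {G : Type*} [Group G]

/-- a cyclic torus for the prime `r`; `w` is the order of the Weyl group -/
def TorP (G : Type*) [Group G] (w N r : ℕ) : Prop :=
  ∃ T : Subgroup G, IsCyclic ↥T ∧ Nat.card ↥T ∣ N ∧ r ∣ Nat.card ↥T ∧
    (∀ y ∈ T, orderOf y = r → Subgroup.centralizer ({y} : Set G) ≤ T) ∧
    ∀ y ∈ T, orderOf y = r → ∀ x : G, (orderOf x).Prime → ¬ orderOf x ∣ w → x * y * x⁻¹ ∈ Subgroup.zpowers y →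
      Commute x y

theorem TorP.cc [Finite G] {w N r : ℕ} (hr : r.Prime) (h : TorP G w N r) : CC G r := by
  obtain ⟨T, h1, -, h2, h3, -⟩ := h
  intro x hx
  exact H129.CycT.CycAt.isCyclic hr ⟨T, h1, h2, h3⟩ hx

theorem TorP.cd [Finite G] {w N r : ℕ} (hr : r.Prime) (h : TorP G w N r) : CD G r N := by
  obtain ⟨T, h1, h0, h2, h3, -⟩ := h
  intro x hx
  obtain ⟨f, hf⟩ := H129.CycT.exists_hom h1 hr h2 h3 hx
  exact (Subgroup.card_dvd_of_injective f hf.1).trans h0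

theorem TorP.nn [Finite G] {w N r s : ℕ} (hr : r.Prime) (hs : s.Prime) (hsw : ¬ s ∣ w) (hsN : ¬ s ∣ N)
    (h : TorP G w N r) : NN G s r := by
  have hcd := h.cd hr
  obtain ⟨T, h1, h0, h2, h3, h4⟩ := h
  intro x y hx hy hxy
  obtain ⟨g, hgy, -⟩ := H129.CycT.centralizer_conj h1 hr h2 h3 hy
  have hconj : ∀ a : G, orderOf (g * a * g⁻¹) = orderOf a := fun a => by
    have h8 : g * a * g⁻¹ = MulAut.conj g a := rfl
    rw [h8]
    exact orderOf_injective (MulAut.conj g).toMonoidHom (MulAut.conj g).injective a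
  have h5 : Commute (g * x * g⁻¹) (g * y * g⁻¹) := by
    refine h4 _ hgy ((hconj y).trans hy) _ (by rw [hconj, hx]; exact hs) (by rw [hconj, hx]; exact hsw) ?_
    obtain ⟨k, hk⟩ := Subgroup.mem_zpowers_iff.1 hxy
    refine Subgroup.mem_zpowers_iff.2 ⟨k, ?_⟩
    rw [conj_zpow, hk]
    group
  have h6 : g * x * g⁻¹ ∈ Subgroup.centralizer ({g * y * g⁻¹} : Set G) :=
    Subgroup.mem_centralizer_singleton_iff.2 h5
  have h7 : orderOf (⟨g * x * g⁻¹, h6⟩ : ↥(Subgroup.centralizer ({g * y * g⁻¹} : Set G))) ∣ N :=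
    (orderOf_dvd_natCard _).trans (hcd _ ((hconj y).trans hy))
  rw [Subgroup.orderOf_mk, hconj, hx] at h7
  exact hsN h7

end Abs

/-! ### normalising a regular element of the torus -/

section Norm

variable {D : ChevalleyDatum} {l : ℕ} {M : CoxeterMatrix (Fin l)} {hp : IsType D l M} {k : Type u} [Field k]
  {W : Type*} [Group W] {cs : CoxeterSystem M W} {p e : ℕ} [Fact p.Prime] [CharP k p] {σ : MulAut ↥(D.group k)}
  {g : (Fin l → ℤ) ≃+ (Fin l → ℤ)}

theorem rp_pow {Y : Type*} [Group Y] {T : Subgroup Y} {nn : Fin l → Y} {hN : NSys M T nn} {w : W} {g : Y}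
    (h : Rp cs hN w g) (n : ℕ) (hn : 0 < n) : Rp cs hN (w ^ n) (g ^ n) := by
  induction n with
  | zero => omega
  | succ n ih =>
    rcases Nat.eq_zero_or_pos n with h0 | h0
    · subst h0; simpa using h
    · rw [pow_succ, pow_succ]
      exact (ih h0).mul h

/-- **an element of prime order `r ∤ |W|` normalising `⟨t⟩`, `t` regular, lies in the torus** -/
theorem mem_TT_of_norm [IsAlgClosed k] [Finite W] (hk : LocFin k) (p : ℕ) [Fact p.Prime] [CharP k p] {t c : ↥(D.group k)}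
    (ht : t ∈ TT D k) {s : ℕ} (hs : s.Prime) (hts : orderOf t = s)
    (hreg : ∀ a, IsRoot cs hp.isCartan a → ch hp a t ≠ 1) {r : ℕ} (hr : r.Prime) (hrW : ¬ r ∣ Nat.card W)
    (hc : c ^ r = 1) (hn : c * t * c⁻¹ ∈ Subgroup.zpowers t) : c ∈ TT D k := by
  obtain ⟨j, hj⟩ := Subgroup.mem_zpowers_iff.1 hn
  have hfin : IsOfFinOrder t := by
    rw [← orderOf_pos_iff, hts]; exact hs.pos
  obtain ⟨i, hi⟩ := hfin.mem_powers_iff_mem_zpowers.2 (Subgroup.zpow_mem_zpowers t j)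
  have hi' : t ^ i = c * t * c⁻¹ := by
    have : t ^ i = t ^ j := hi
    rw [this, hj]
  have ht' : t ^ i ∈ TT D k := pow_mem ht i
  have hio : orderOf (t ^ i) = s := by
    rw [hi']
    have h8 : c * t * c⁻¹ = MulAut.conj c t := rfl
    rw [h8, ← hts]
    exact orderOf_injective (MulAut.conj c).toMonoidHom (MulAut.conj c).injective t
  have e : c * t = t ^ i * c := by rw [hi']; group
  obtain ⟨m, hm, w, g, hg, hgs, hcm⟩ := H378.Regular.exists_form' hp cs hk p ht ht' e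
  have hreg' : ∀ a, IsRoot cs hp.isCartan a → ch hp a (t ^ i) ≠ 1 := by
    intro a ha h1
    -- `t` is a power of `t ^ i`
    have hsi : Nat.Coprime i s := by
      rw [Nat.coprime_comm, Nat.Prime.coprime_iff_not_dvd hs]
      rintro ⟨b, rfl⟩
      rw [pow_mul, ← hts, pow_orderOf_eq_one, one_pow, orderOf_one] at hio
      rw [hts] at hio
      exact hs.one_lt.ne hio
    obtain ⟨b, -, hb⟩ := Nat.exists_mul_mod_eq_one_of_coprime hsi hs.one_lt
    have h2 : (t ^ i) ^ b = t := by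
      rw [← pow_mul]
      conv_rhs => rw [← pow_one t]
      rw [pow_eq_pow_iff_modEq, hts, Nat.ModEq, hb, Nat.mod_eq_of_lt hs.one_lt]
    apply hreg a ha
    rw [← cX_root hp cs ht ha]
    rw [← cX_root hp cs ht' ha] at h1
    conv_lhs => rw [← h2]
    rw [cX_pow hp ht', h1, one_pow]
  rw [H378.Regular.MM_eq_bot hp cs hreg', Subgroup.mem_bot] at hm
  rw [hm, one_mul] at hcm
  subst hcm
  have hW : 0 < Nat.card W := Nat.card_pos
  have h3 := rp_pow hg (Nat.card W) hW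
  have h4 : w ^ Nat.card W = 1 := pow_card_eq_one'
  rw [h4] at h3
  have h5 := h3.mem_of_one
  have hco : Nat.Coprime (Nat.card W) r := ((Nat.Prime.coprime_iff_not_dvd hr).2 hrW).symm
  obtain ⟨b, -, hb⟩ := Nat.exists_mul_mod_eq_one_of_coprime hco hr.one_lt
  have h6 : (c ^ Nat.card W) ^ b = c := by
    rw [← pow_mul]
    conv_rhs => rw [← pow_one c]
    have h7 : orderOf c ∣ r := orderOf_dvd_of_pow_eq_one hc
    rw [pow_eq_pow_iff_modEq]
    refine Nat.ModEq.of_dvd h7 ?_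
    rw [Nat.ModEq, hb, Nat.mod_eq_of_lt hr.one_lt]
  rw [← h6]
  exact pow_mem h5 b

theorem comm_TT {a b : ↥(D.group k)} (hp : IsType D l M) (ha : a ∈ TT D k) (hb : b ∈ TT D k) : Commute a b :=
  cX_inj hp (mul_mem ha hb) (mul_mem hb ha) fun i => by rw [cX_mul hp ha hb, cX_mul hp hb ha, mul_comm]

/-- the statement for the finite group -/
theorem norm_comm [IsAlgClosed k] [Finite W] {hN : NSys M (TT D k) (nc hp k)} {w : W}
    {B : Fin l → Fin l → ℤ} {Q : ℤ} {N : ℕ} {n z t : ↥(D.group k)} {u : k} (X : TD hp cs hN w σ B Q N n z t u)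
    (hk : LocFin k) (p : ℕ) [Fact p.Prime] [CharP k p] (hN0 : N ≠ 0) {G0 : Type*} [Group G0]
    {e0 : G0 →* ↥(D.group k)} (he0 : Function.Injective e0) {r : ℕ} (hr : r.Prime)
    (hG : ∀ a, IsRoot cs hp.isCartan a → ¬ (r : ℤ) ∣ Gq B Q a) {y : G0}
    (hy : y ∈ T0 e0 (z * t * z⁻¹)) (hyr : orderOf y = r) {x : G0} (hx : (orderOf x).Prime)
    (hxW : ¬ orderOf x ∣ Nat.card W) (hxy : x * y * x⁻¹ ∈ Subgroup.zpowers y) : Commute x y := by
  have hfo : IsOfFinOrder (z * t * z⁻¹) := by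
    have h1 : orderOf (z * t * z⁻¹) = N := by
      have h3 : z * t * z⁻¹ = MulAut.conj z t := rfl
      rw [h3, ← X.htN]
      exact orderOf_injective (MulAut.conj z).toMonoidHom (MulAut.conj z).injective t
    rw [← orderOf_pos_iff, h1]
    exact Nat.pos_of_ne_zero hN0
  obtain ⟨j, hj⟩ := (hfo.mem_powers_iff_mem_zpowers.2 hy)
  have hj' : (z * t * z⁻¹) ^ j = e0 y := hj
  have e1 : e0 y = z * t ^ j * z⁻¹ := by rw [← hj', conj_pow]
  have hoj : orderOf (t ^ j) = r := by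
    have h2 : orderOf (z * t ^ j * z⁻¹) = orderOf (t ^ j) := by
      have h3 : z * t ^ j * z⁻¹ = MulAut.conj z (t ^ j) := rfl
      rw [h3]
      exact orderOf_injective (MulAut.conj z).toMonoidHom (MulAut.conj z).injective (t ^ j)
    rw [← h2, ← e1, orderOf_injective e0 he0 y, hyr]
  have htj : t ^ j ∈ TT D k := pow_mem X.ht j
  -- regularity
  have hone : ∀ y : ℤ, u ^ y = 1 ↔ (N : ℤ) ∣ y := fun y => X.hu.zpow_eq_one_iff_dvd y
  have hj0 : j ≠ 0 := by
    rintro rfl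
    rw [pow_zero, orderOf_one] at hoj
    exact hr.one_lt.ne hoj
  have hgcd : N = r * Nat.gcd N j := by
    have h1 : orderOf (t ^ j) = N / Nat.gcd N j := by rw [orderOf_pow' t hj0, X.htN]
    rw [hoj] at h1
    have h2 := Nat.div_mul_cancel (Nat.gcd_dvd_left N j)
    rw [← h1] at h2
    exact h2.symm
  have hval : ∀ x, cX hp (t ^ j) x = 1 → (r : ℤ) ∣ Gq B Q x := by
    intro x
    rw [X.val_pow, hone]
    obtain ⟨m, hm⟩ := Nat.gcd_dvd_right N j
    have hd0 : Nat.gcd N j ≠ 0 := fun h0 => hN0 (by rw [hgcd, h0, mul_zero])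
    have hco : Nat.Coprime r m := by
      have h3 : Nat.gcd N j = Nat.gcd (r * Nat.gcd N j) (Nat.gcd N j * m) := by
        rw [← hgcd, ← hm]
      rw [mul_comm r, Nat.gcd_mul_left] at h3
      exact Nat.eq_of_mul_eq_mul_left (Nat.pos_of_ne_zero hd0) (h3.symm.trans (mul_one _).symm)
    have e1 : (N : ℤ) = (Nat.gcd N j : ℤ) * r := by
      rw [mul_comm]; exact_mod_cast hgcd
    have e2 : (j : ℤ) * Gq B Q x = (Nat.gcd N j : ℤ) * (m * Gq B Q x) := by
      rw [← mul_assoc]; congr 1; exact_mod_cast hm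
    rw [e1, e2, mul_dvd_mul_iff_left (Nat.cast_ne_zero.2 hd0)]
    intro h4
    exact (Nat.isCoprime_iff_coprime.2 hco).dvd_of_dvd_mul_left h4
  have hreg : ∀ a, IsRoot cs hp.isCartan a → ch hp a (t ^ j) ≠ 1 := by
    intro a ha h1
    rw [← cX_root hp cs htj ha] at h1
    exact hG a ha (hval a h1)
  have e3 : e0 y = z * t ^ j * z⁻¹ := e1
  have h4 : z⁻¹ * e0 x * z ∈ TT D k := by
    refine mem_TT_of_norm (hp := hp) (cs := cs) hk p htj hr hoj hreg hx hxW ?_ ?_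
    · have h5 : (z⁻¹ * e0 x * z) ^ orderOf x = z⁻¹ * (e0 x) ^ orderOf x * z := by
        have := conj_pow (i := orderOf x) (a := z⁻¹) (b := e0 x)
        rwa [inv_inv] at this
      rw [h5, ← map_pow, pow_orderOf_eq_one, map_one, mul_one, inv_mul_cancel]
    · obtain ⟨i, hi⟩ := Subgroup.mem_zpowers_iff.1 hxy
      refine Subgroup.mem_zpowers_iff.2 ⟨i, ?_⟩
      have h6 : e0 y ^ i = e0 x * e0 y * (e0 x)⁻¹ := by rw [← map_zpow, hi, map_mul, map_mul, map_inv]
      rw [e3, conj_zpow] at h6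
      calc (t ^ j) ^ i = z⁻¹ * (z * (t ^ j) ^ i * z⁻¹) * z := by group
        _ = z⁻¹ * (e0 x * (z * t ^ j * z⁻¹) * (e0 x)⁻¹) * z := by rw [h6]
        _ = _ := by group
  have h5 := comm_TT hp h4 htj
  refine he0 ?_
  rw [map_mul, map_mul, e3]
  calc e0 x * (z * t ^ j * z⁻¹) = z * ((z⁻¹ * e0 x * z) * t ^ j) * z⁻¹ := by group
    _ = z * (t ^ j * (z⁻¹ * e0 x * z)) * z⁻¹ := by rw [h5.eq]
    _ = _ := by group

/-- **The tori of the finite groups, with normalising elements.** -/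
theorem exists_TorP [IsAlgClosed k] [Finite W] (hl : 0 < l) (hk : LocFin k) {hN : NSys M (TT D k) (nc hp k)}
    (he : 0 < e) (hσ : IsFrob p e σ) (F : Fr cs hp.isCartan (TT D k) (XX D l k) σ g) {d' : ℕ}
    {B' : Fin l → Fin l → ℤ} (hB : InvC D l d' B') (hd' : d' ≠ 0) {w : W} {V B : Fin l → Fin l → ℤ} {c : Fin l → ℤ}
    (h : Cyc l (theta hp cs w g) V B c) {N : ℕ} (hfN : fN c ((p ^ e : ℕ) : ℤ) = N) (hpN : ¬ p ∣ N)
    {G0 : Type*} [Group G0] {e0 : G0 →* ↥(D.group k)} (he0 : Function.Injective e0) (hfix : ∀ x, σ (e0 x) = e0 x)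
    {d : ℕ} (hd : ∀ y, σ y = y → y ^ d ∈ e0.range) {r : ℕ} (hr : r.Prime) (hrN : r ∣ N) (hrd : ¬ r ∣ d)
    (hrW : ¬ r ∣ Nat.card W)
    (hG : ∀ a, IsRoot cs hp.isCartan a → ¬ (r : ℤ) ∣ Gq B ((p ^ e : ℕ) : ℤ) a) : TorP G0 (Nat.card W) N r := by
  have hN0 : N ≠ 0 := fun h0 => hpN (by rw [h0]; exact dvd_zero p)
  obtain ⟨n, z, t, u, X⟩ := TD.exists_of (hp := hp) (cs := cs) (hN := hN) hl hk he hσ F hB hd' h hfN hpN
  have hord : orderOf (z * t * z⁻¹) = N := by
    have h3 : z * t * z⁻¹ = MulAut.conj z t := rfl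
    rw [h3, ← X.htN]
    exact orderOf_injective (MulAut.conj z).toMonoidHom (MulAut.conj z).injective t
  have hσz : σ z = z * n := by rw [X.hz]; group
  have hσa : σ (z * t * z⁻¹) = z * t * z⁻¹ := by
    rw [map_mul, map_mul, map_inv, hσz]
    calc z * n * σ t * (z * n)⁻¹ = z * (n * σ t * n⁻¹) * z⁻¹ := by group
      _ = z * t * z⁻¹ := by rw [X.hτ]
  refine ⟨T0 e0 (z * t * z⁻¹), isCyclic_T0 he0, ?_, ?_, ?_, ?_⟩
  · have h1 := card_T0_dvd (a := z * t * z⁻¹) he0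
    rwa [hord] at h1
  · have h1 := dvd_card_T0 he0 (hd _ hσa)
    rw [hord] at h1
    exact ((hr.dvd_mul).1 (hrN.trans h1)).resolve_left hrd
  · intro y hy hyr
    exact X.centralizer_le hk p hN0 he0 hfix hr hrW hG hy hyr
  · intro y hy hyr x hx hxW hxy
    exact norm_comm X hk p hN0 he0 hr hG hy hyr hx hxW hxy

end Norm

end Cfsg.Agent.H190.Exc
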